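import Mathlib

/-! FH.A: Feit-Higman, the algebra: an idempotent of the Hecke algebra of a dihedral group. -/

open Finset

namespace FH

variable {R : Type*} [Ring R] [Algebra ℂ R]

theorem core {a b : R} {u v s ζ ξ : ℂ} {d : ℕ} (ha : a * a = u • (1 : R) + (u - 1) • a)
    (hb : b * b = v • (1 : R) + (v - 1) • b) (hbr : (a * b) ^ (d + 1) = (b * a) ^ (d + 1))
    (hs : s * s = u * v) (hs0 : s ≠ 0) (hu : u ≠ 0) (hu1 : 1 + u ≠ 0) (h1 : ζ * ξ = 1)
    (h2 : ζ ^ (d + 1) = ξ ^ (d + 1)) (h3 : ζ ≠ ξ) :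
    ∃ (c : ℂ) (y : ℕ → ℂ), y 0 = 1 ∧
      c * (4 * (u * v) - (s * (ζ + ξ)) ^ 2) =
        2 * (d + 1) * (u * v + 1 - s * (ζ + ξ)) * (u + v + s * (ζ + ξ)) ∧
      ∀ e : R, e = ∑ j ∈ range (d + 1), (y j • ((a * b) ^ j * (1 + a)) +
        y (j + 1) • (b * ((a * b) ^ j * (1 + a)))) → e * e = c • e := by
  have h4 : ζ - ξ ≠ 0 := sub_ne_zero.2 h3
  set x := s * (ζ + ξ) with hx
  obtain ⟨ψ₁, hψ⟩ : ∃ ψ₁ : ℂ, (1 + u) * s * ψ₁ = u * (v - 1 + x) :=
    ⟨u * (v - 1 + x) / ((1 + u) * s), by field_simp⟩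
  obtain ⟨A, hA⟩ : ∃ A : ℂ, A * (ζ - ξ) = ψ₁ - ξ := ⟨(ψ₁ - ξ) / (ζ - ξ), by field_simp⟩
  set B := 1 - A with hB
  set ψ : ℕ → ℂ := fun j => A * ζ ^ j + B * ξ ^ j with hψd
  have p0 : ψ 0 = 1 := by simp [hψd, hB]
  have p1 : ψ 1 = ψ₁ := by simp only [hψd, hB]; linear_combination hA
  have p2 : ∀ j, ψ (j + 2) = (ζ + ξ) * ψ (j + 1) - ψ j := fun j => by
    simp only [hψd]; linear_combination (-(A * ζ ^ j + B * ξ ^ j)) * h1
  have p3 : ψ (d + 1) = ζ ^ (d + 1) := by simp only [hψd, hB]; rw [← h2]; ring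
  have p4 : ψ (d + 2) = ζ ^ (d + 1) * ψ₁ := by
    rw [← p1]; simp only [hψd]; rw [pow_succ ξ, ← h2]; ring
  have geo : ∀ {ζ ξ : ℂ}, ζ * ξ = 1 → ζ ^ (d + 1) = ξ ^ (d + 1) → ζ ≠ ξ →
      ∑ j ∈ range (d + 1), (ζ ^ 2) ^ j = 0 := fun {ζ ξ} h1 h2 h3 => by
    have k1 : ζ ^ 2 - 1 ≠ 0 := fun h => h3 (by linear_combination ξ * h - ζ * h1)
    refine (mul_eq_zero.1 ?_).resolve_right k1
    rw [geom_sum_mul, ← pow_mul, mul_comm 2, pow_mul, pow_two]
    nth_rewrite 2 [h2]
    rw [← mul_pow, h1, one_pow, sub_self]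
  have p5 : ∑ j ∈ range (d + 1), ψ j ^ 2 = 2 * (d + 1) * (A * B) := by
    have : ∀ j, ψ j ^ 2 = A ^ 2 * (ζ ^ 2) ^ j + B ^ 2 * (ξ ^ 2) ^ j + 2 * (A * B) := fun j => by
      have : ζ ^ j * ξ ^ j = 1 := by rw [← mul_pow, h1, one_pow]
      simp only [hψd]; linear_combination 2 * A * B * this
    simp only [this, sum_add_distrib, ← mul_sum, geo h1 h2 h3,
      geo ((mul_comm _ _).trans h1) h2.symm h3.symm]
    simp; ring
  have p6 : ∑ j ∈ range (d + 1), ψ (j + 1) ^ 2 = 2 * (d + 1) * (A * B) := by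
    have := sum_range_succ' (fun j => ψ j ^ 2) (d + 1)
    rw [sum_range_succ, p5, p0, p3] at this
    have k : (ζ ^ (d + 1)) ^ 2 = 1 := by
      rw [pow_two]; nth_rewrite 2 [h2]; rw [← mul_pow, h1, one_pow]
    linear_combination k - this
  obtain ⟨σ, hσ⟩ : ∃ σ : ℂ, s * σ = 1 := ⟨s⁻¹, by field_simp⟩
  set y : ℕ → ℂ := fun j => ψ j * σ ^ j with hy
  set θ := u + v + x with hθ
  refine ⟨(1 + u) * (1 + u⁻¹) * (2 * (d + 1) * (A * B)), y, by simp [hy, p0], ?_, fun e he => ?_⟩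
  · have k1 : A * B * (4 - (ζ + ξ) ^ 2) = ψ₁ ^ 2 - (ζ + ξ) * ψ₁ + 1 := by
      rw [hB]
      linear_combination (-(ζ - ξ) + A * (ζ - ξ) + ψ₁ - ξ) * hA - (4 * A * (1 - A) - 1) * h1
    have k2 : (1 + u) ^ 2 * (s * s) * (ψ₁ ^ 2 - (ζ + ξ) * ψ₁ + 1) = u * ((u * v + 1 - x) * θ) := by
      rw [hθ]
      linear_combination ((1 + u) * s * ψ₁ + u * (v - 1 + x) - (1 + u) * x) * hψ + (1 + u) ^ 2 * hs
    apply mul_left_cancel₀ hu
    have k3 : u * u⁻¹ = 1 := by field_simp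
    rw [← hs]
    linear_combination 2 * (d + 1) * k2 + 2 * (d + 1) * (1 + u) ^ 2 * (s * s) * k1 +
      (1 + u) * (2 * (d + 1) * (A * B)) * (4 * (s * s) - x ^ 2) * k3 -
      2 * (d + 1) * (u + v + x) * u * hs
  set Z : ℕ → R := fun j => (a * b) ^ j * (1 + a) with hZ
  have z1 : ∀ j, a * (b * Z j) = Z (j + 1) := fun j => by simp only [hZ, pow_succ']; noncomm_ring
  have z0 : a * Z 0 = u • Z 0 := by
    simp only [hZ, pow_zero, one_mul, mul_add, mul_one, ha]; module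
  have z2 : ∀ j, a * Z (j + 1) = u • (b * Z j) + (u - 1) • Z (j + 1) := fun j => by
    rw [← z1, ← mul_assoc, ha]; simp [add_mul]
  have z3 : Z (d + 1) = u • (b * Z d) := by
    have k : (a * b) ^ (d + 1) = b * (a * b) ^ d * a := by
      rw [hbr, pow_succ', mul_assoc b a, mul_assoc b]
      congr 1
      exact ((SemiconjBy.pow_right (show SemiconjBy a (b * a) (a * b) from (mul_assoc _ _ _).symm) d).eq)
    simp only [hZ, k, mul_assoc, mul_add, mul_one, ha, mul_smul_comm]; module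
  have z4 : a * Z (d + 1) = u • Z (d + 1) := by rw [z2, ← z3]; module
  have e1 : a * e = u • e := by
    have := sum_range_sub' (fun j => y j • (a * Z j - u • Z j)) (d + 1)
    rw [z0, z4, sub_self, sub_self, smul_zero, smul_zero, sub_self] at this
    rw [← sub_eq_zero, ← this, he, mul_sum, smul_sum, ← sum_sub_distrib]
    refine sum_congr rfl fun j _ => ?_
    rw [mul_add, mul_smul_comm, mul_smul_comm, z1, z2]; module
  set z : ℕ → ℂ := fun j => y j + v * y (j + 1) with hz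
  set f := ∑ j ∈ range (d + 1), z j • (Z j + b * Z j) with hf
  have bb : ∀ r : R, b * (b * r) = v • r + (v - 1) • (b * r) := fun r => by
    rw [← mul_assoc, hb]; simp [add_mul]
  have e2 : b * e = f - e := by
    rw [he, hf, mul_sum, ← sum_sub_distrib]
    refine sum_congr rfl fun j _ => ?_
    rw [mul_add, mul_smul_comm, mul_smul_comm, bb]; simp only [hz]; module
  have e3 : b * f = v • f := by
    rw [hf, mul_sum, smul_sum]
    refine sum_congr rfl fun j _ => ?_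
    rw [mul_smul_comm, mul_add, bb]; module
  have y1 : ∀ j, θ * y (j + 1) = u * z (j + 1) + z j := fun j => by
    simp only [hz, hy, hθ, p2, hx]
    linear_combination σ ^ (j + 2) * ((ζ + ξ) * ψ (j + 1) - ψ j) * hs +
      σ ^ j * (ψ j * (s * σ + 1) - (ζ + ξ) * ψ (j + 1) * s * σ) * hσ
  have y2 : ∀ j (ε : ℂ), ψ j = ε → ψ (j + 1) = ε * ψ₁ → (1 + u) * z j = θ * y j := fun j ε k1 k2 => by
    simp only [hz, hy, hθ, k1, k2]
    apply mul_left_cancel₀ hu
    linear_combination ε * σ ^ j * hψ - (1 + u) * ε * ψ₁ * σ ^ (j + 1) * hs +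
      (1 + u) * ε * ψ₁ * σ ^ j * s * hσ
  have e4 : a * f = θ • e - f := by
    have := sum_range_sub' (fun j => z j • (Z j + a * Z j) - (θ * y j) • Z j) (d + 1)
    rw [z0, z4, ← y2 0 1 p0 (by rw [one_mul]; exact p1), ← y2 _ _ p3 p4] at this
    rw [← sub_eq_zero, ← show _ = (0 : R) from this.trans (by module), he, hf, mul_sum, smul_sum,
      ← sum_sub_distrib, ← sum_sub_distrib]
    refine sum_congr rfl fun j _ => ?_
    rw [mul_smul_comm, mul_add, z1, z2, y1, smul_add θ, smul_smul θ (y (j + 1)), y1]; module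
  have g1 : (a * b) * e = (θ - u) • e - f := by rw [mul_assoc, e2, mul_sub, e4, e1]; module
  have g2 : (a * b) * ((a * b) * e) = x • ((a * b) * e) - (u * v) • e := by
    rw [g1, mul_sub, mul_smul_comm, g1, mul_assoc a b f, e3, mul_smul_comm, e4, hθ]; module
  have g3 : ∀ j, (1 + a) * ((a * b) ^ j * e) = ((1 + u) * (ψ j * s ^ j)) • e := by
    intro j
    induction j using Nat.twoStepInduction with
    | zero => rw [p0, pow_zero, one_mul, add_mul, one_mul, e1]; module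
    | one =>
      rw [p1, pow_one, g1, mul_sub, mul_smul_comm, add_mul, add_mul, one_mul, one_mul, e1, e4, pow_one,
        show (1 + u) * (ψ₁ * s) = u * (v - 1 + x) by linear_combination hψ, hθ]
      module
    | more j i1 i2 =>
      rw [pow_succ, pow_succ, mul_assoc, mul_assoc, g2, mul_sub, mul_sub, mul_smul_comm, mul_smul_comm,
        mul_smul_comm, mul_smul_comm, ← mul_assoc _ (a * b), ← pow_succ, i1, i2, p2, ← hs, hx]
      module
  have g4 : ∀ j, u • ((1 + a) * (b * ((a * b) ^ j * e))) = ((1 + u) * (ψ (j + 1) * s ^ (j + 1))) • e :=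
    fun j => by
      rw [← g3, pow_succ', mul_assoc, mul_assoc, ← mul_assoc (1 + a) a, ← smul_mul_assoc]
      congr 1
      rw [add_mul, one_mul, ha]; module
  have g5 : (1 + a) * e = (1 + u) • e := by rw [add_mul, one_mul, e1]; module
  have k3 : u * u⁻¹ = 1 := by field_simp
  apply smul_right_injective R (mul_ne_zero hu hu1)
  simp only
  calc (u * (1 + u)) • (e * e) = u • ((1 + a) * (e * e)) := by
        rw [← mul_assoc, g5, smul_mul_assoc, smul_smul]
    _ = ∑ j ∈ range (d + 1), ((1 + u) * (1 + u) * (u * ψ j ^ 2 + ψ (j + 1) ^ 2)) • e := by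
        nth_rewrite 1 [he]
        rw [sum_mul, mul_sum, smul_sum]
        refine sum_congr rfl fun j _ => ?_
        have k : ∀ n, σ ^ n * s ^ n = 1 := fun n => by rw [← mul_pow, mul_comm, hσ, one_pow]
        rw [add_mul (y j • _)]
        simp only [hZ, smul_mul_assoc, mul_assoc, g5, mul_smul_comm, mul_add (1 + a),
          smul_add u, g3]
        rw [smul_comm u (y (j + 1)), smul_comm u (1 + u), g4]
        simp only [smul_smul, ← add_smul, hy]
        congr 1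
        linear_combination (1 + u) ^ 2 * u * ψ j ^ 2 * k j + (1 + u) ^ 2 * ψ (j + 1) ^ 2 * k (j + 1)
    _ = _ := by
        rw [← sum_smul, ← mul_sum, sum_add_distrib, ← mul_sum, p5, p6, smul_smul]
        congr 1
        linear_combination (-(1 + u) ^ 2 * (2 * (d + 1) * (A * B))) * k3

end FH
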