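import Cfsg.Agent.FH.A

/-! FH.B: Feit-Higman, rationality and arithmetic. -/

open Finset

namespace FH

variable {X : Type*} [Fintype X] [DecidableEq X]

theorem trace_idem {e : Matrix X X ℂ} (h : e * e = e) : ∃ k : ℕ, e.trace = k := by
  have h1 : IsIdempotentElem (Matrix.toLin' e) := by
    rw [IsIdempotentElem, Module.End.mul_eq_comp, ← Matrix.toLin'_mul, h]
  exact ⟨_, by rw [← Matrix.trace_toLin'_eq, (LinearMap.IsIdempotentElem.isProj_range _ h1).trace]⟩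

/-- the relations of the Hecke algebra of the dihedral group of order `4 (d + 1)` -/
structure Rel (a b : Matrix X X ℂ) (u v d : ℕ) : Prop where
  ne : Nonempty X
  ha : a * a = (u : ℂ) • (1 : Matrix X X ℂ) + ((u : ℂ) - 1) • a
  hb : b * b = (v : ℂ) • (1 : Matrix X X ℂ) + ((v : ℂ) - 1) • b
  br : (a * b) ^ (d + 1) = (b * a) ^ (d + 1)
  t1 : ∀ j, 0 < j → j ≤ d → ((a * b) ^ j).trace = 0
  t2 : ∀ j ≤ d, ((a * b) ^ j * a).trace = 0
  t3 : ∀ j ≤ d, (b * (a * b) ^ j).trace = 0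
  t4 : ∀ j ≤ d, (b * (a * b) ^ j * a).trace = 0

variable {a b : Matrix X X ℂ} {u v d : ℕ}

theorem Rel.rat (h : Rel a b u v d) (hu : 0 < u) {s ζ ξ : ℂ} (hs : s * s = u * v) (hs0 : s ≠ 0)
    (h1 : ζ * ξ = 1) (h2 : ζ ^ (d + 1) = ξ ^ (d + 1)) (h3 : ζ ≠ ξ) :
    ∃ q : ℚ, q * (4 * (u * v) - (s * (ζ + ξ)) ^ 2) =
      2 * (d + 1) * (u * v + 1 - s * (ζ + ξ)) * (u + v + s * (ζ + ξ)) := by
  obtain ⟨c, y, y0, hc, he⟩ := core h.ha h.hb h.br hs hs0 (by exact_mod_cast hu.ne')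
    (by exact_mod_cast (by omega : 1 + u ≠ 0)) h1 h2 h3
  have e1 := he _ rfl
  set e := ∑ j ∈ range (d + 1), (y j • ((a * b) ^ j * (1 + a)) +
        y (j + 1) • (b * ((a * b) ^ j * (1 + a)))) with hed
  have e2 : e.trace = Fintype.card X := by
    rw [hed, Matrix.trace_sum, sum_eq_single 0]
    · have := h.t2 0 (Nat.zero_le _)
      have h3 := h.t3 0 (Nat.zero_le _)
      have h4 := h.t4 0 (Nat.zero_le _)
      simp only [pow_zero, one_mul, mul_one] at this h3 h4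
      simp [mul_add, y0, this, h3, h4]
    · intro j hj h0
      have hj' : j ≤ d := by simpa [Nat.lt_succ_iff] using hj
      simp [mul_add, ← mul_assoc, h.t1 j (Nat.pos_of_ne_zero h0) hj', h.t2 j hj', h.t3 j hj', h.t4 j hj']
    · simp
  rw [← hc]
  by_cases c0 : c = 0
  · exact ⟨0, by simp [c0]⟩
  obtain ⟨k, hk⟩ := trace_idem (e := c⁻¹ • e) (by
    rw [smul_mul_smul_comm, e1, smul_smul]; congr 1; field_simp)
  rw [Matrix.trace_smul, e2, smul_eq_mul] at hk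
  have n0 : (Fintype.card X : ℂ) ≠ 0 := by
    haveI := h.ne
    exact_mod_cast Fintype.card_ne_zero
  have k0 : (k : ℂ) ≠ 0 := hk ▸ mul_ne_zero (inv_ne_zero c0) n0
  refine ⟨Fintype.card X / k, ?_⟩
  congr 1
  push_cast
  rw [← hk]; field_simp

theorem Rel.rat2 (h : Rel a b u v d) (hu : 0 < u) (hv : 2 ≤ v) {s ζ ξ : ℂ} (hs : s * s = u * v)
    (h1 : ζ * ξ = 1) (h2 : ζ ^ (d + 1) = ξ ^ (d + 1)) (h3 : ζ ^ 2 ≠ 1) :
    (∃ q : ℚ, (s * (ζ + ξ)) ^ 2 = q) ∧ (2 ≤ u → ∃ q : ℚ, s * (ζ + ξ) = q) := by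
  have hs0 : s ≠ 0 := fun e => by
    rw [e, zero_mul] at hs
    have : u * v = 0 := by exact_mod_cast hs.symm
    exact absurd this (by positivity)
  have h4 : ζ ≠ ξ := fun e => h3 (by rw [pow_two, ← h1, e])
  obtain ⟨q, hq⟩ := h.rat hu hs hs0 h1 h2 h4
  obtain ⟨q', hq'⟩ := h.rat hu (ζ := -ζ) (ξ := -ξ) hs hs0 (by simpa using h1)
    (by rw [neg_pow, h2, ← neg_pow]) (by simpa using h4)
  rw [← neg_add, mul_neg] at hq'
  generalize s * (ζ + ξ) = x at hq hq'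
  have k1 : ((q + q' - 4 * (d + 1) : ℚ) : ℂ) ≠ 0 := fun e => by
    push_cast at e
    have : (4 * (d + 1) : ℂ) * (4 * (u * v) - (u * v + 1) * (u + v)) = 0 := by
      linear_combination hq + hq' - (4 * (u * v) - x ^ 2) * e
    rcases mul_eq_zero.1 this with e | e
    · exact absurd (by exact_mod_cast e : 4 * (d + 1) = 0) (by omega)
    · have : 4 * (u * v) = (u * v + 1) * (u + v) := by exact_mod_cast sub_eq_zero.1 e
      obtain rfl | hu2 : u = 1 ∨ 2 ≤ u := by omega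
      · nlinarith
      · nlinarith [Nat.mul_le_mul_left (u * v + 1) (show 4 ≤ u + v by omega)]
  have k2 : x ^ 2 = ((4 * (u * v) * (q + q') - 4 * (d + 1) * ((u * v + 1) * (u + v))) /
      (q + q' - 4 * (d + 1)) : ℚ) := by
    push_cast at k1 ⊢
    rw [eq_div_iff k1]
    linear_combination -hq - hq'
  refine ⟨⟨_, k2⟩, fun hu2 => ?_⟩
  generalize (4 * (u * v) * (q + q') - 4 * (d + 1) * ((u * v + 1) * (u + v))) /
      (q + q' - 4 * (d + 1) : ℚ) = t at k2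
  have k3 : (4 * (d + 1) * ((u - 1) * (v - 1)) : ℂ) ≠ 0 := by
    refine mul_ne_zero (by exact_mod_cast (by omega : 4 * (d + 1) ≠ 0)) (mul_ne_zero ?_ ?_) <;>
      rw [sub_ne_zero] <;> norm_cast <;> omega
  refine ⟨(q - q') * (4 * (u * v) - t) / (4 * (d + 1) * ((u - 1) * (v - 1))), ?_⟩
  push_cast
  rw [eq_div_iff k3, ← k2]
  linear_combination -hq + hq'

theorem niv {η η' : ℂ} {n : ℕ} (hp : IsPrimitiveRoot η n) (hn : 0 < n) (h1 : η * η' = 1) {q : ℚ}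
    (hq : η + η' = q) : n = 1 ∨ n = 2 ∨ n = 3 ∨ n = 4 ∨ (n = 6 ∧ q = 1) := by
  have e : η' = η ^ (n - 1) := by
    have : η * η ^ (n - 1) = 1 := by rw [← pow_succ', Nat.sub_add_cancel hn, hp.pow_eq_one]
    exact mul_left_cancel₀ (hp.ne_zero hn.ne') (h1.trans this.symm)
  have i1 : IsIntegral ℤ (η + η') := by
    rw [e]; exact (hp.isIntegral hn).add ((hp.isIntegral hn).pow _)
  rw [hq] at i1
  obtain ⟨t, ht⟩ := IsIntegrallyClosed.algebraMap_eq_of_integral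
    ((isIntegral_algebraMap_iff (algebraMap ℚ ℂ).injective).1 i1)
  have n1 : ‖η‖ = 1 := hp.norm'_eq_one hn.ne'
  have n2 : ‖((t : ℤ) : ℂ)‖ ≤ 2 := by
    have : ((t : ℤ) : ℂ) = η + η' := by rw [hq, ← ht]; simp
    rw [this, e]
    refine (norm_add_le _ _).trans ?_
    rw [norm_pow, n1]; norm_num
  rw [Complex.norm_intCast] at n2
  have n3 : |t| ≤ 2 := by exact_mod_cast n2
  have e2 : η ^ 2 = t * η - 1 := by
    have : ((t : ℤ) : ℂ) = η + η' := by rw [hq, ← ht]; simp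
    rw [this]; linear_combination -h1
  have dv : ∀ k : ℕ, η ^ k = 1 → n ∣ k := fun k hk => (hp.pow_eq_one_iff_dvd k).1 hk
  obtain ⟨a1, a2⟩ := abs_le.1 n3
  interval_cases t <;> push_cast at e2
  · have : (η + 1) ^ 2 = 0 := by linear_combination e2
    have := Nat.le_of_dvd two_pos (dv 2 (by
      linear_combination (η - 1) * (pow_eq_zero_iff two_ne_zero).1 this))
    omega
  · have := Nat.le_of_dvd three_pos (dv 3 (by linear_combination (η - 1) * e2))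
    omega
  · have := Nat.le_of_dvd four_pos (dv 4 (by linear_combination (η ^ 2 - 1) * e2))
    omega
  · have h6 := dv 6 (by linear_combination (η ^ 3 - 1) * (η + 1) * e2)
    have := Nat.le_of_dvd (by norm_num) h6
    interval_cases n <;> simp_all
  · have : (η - 1) ^ 2 = 0 := by linear_combination e2
    have := Nat.le_of_dvd one_pos (dv 1 (by linear_combination (pow_eq_zero_iff two_ne_zero).1 this))
    omega

theorem Rel.main (h : Rel a b u v d) (hu : 0 < u) (hv : 2 ≤ v) :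
    d = 0 ∨ d = 1 ∨ d = 2 ∨ d = 3 ∨ (d = 5 ∧ u = 1) := by
  by_cases d0 : d = 0
  · exact Or.inl d0
  obtain ⟨s, hs⟩ := IsAlgClosed.exists_eq_mul_self ((u : ℂ) * v)
  have huv : (u : ℂ) * v ≠ 0 := by exact_mod_cast (by positivity : u * v ≠ 0)
  have hp := Complex.isPrimitiveRoot_exp (2 * (d + 1)) (by omega)
  generalize Complex.exp _ = ζ at hp
  have z0 : ζ ≠ 0 := hp.ne_zero (by omega)
  have h1 : ζ * ζ⁻¹ = 1 := mul_inv_cancel₀ z0
  have hp2 : IsPrimitiveRoot (ζ ^ 2) (d + 1) := hp.pow (by omega) rfl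
  have k : ∀ η : ℂ, η ^ (2 * (d + 1)) = 1 → η ^ (d + 1) = η⁻¹ ^ (d + 1) := fun η h => by
    rw [inv_pow]; exact eq_inv_of_mul_eq_one_left (by rw [← pow_add, ← two_mul, h])
  obtain ⟨⟨q, hq⟩, h2⟩ := h.rat2 hu hv hs.symm h1 (k ζ hp.pow_eq_one) (hp2.ne_one (by omega))
  have h3 : ζ ^ 2 + ζ⁻¹ ^ 2 = ((q / (u * v) - 2 : ℚ) : ℂ) := by
    push_cast
    rw [eq_sub_iff_add_eq, eq_div_iff huv, ← hq, hs]
    linear_combination (-2 * s * s) * h1
  have h4 : ζ ^ 2 * ζ⁻¹ ^ 2 = 1 := by rw [← mul_pow, h1, one_pow]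
  rcases niv hp2 (by omega) h4 h3 with e | e | e | e | ⟨e, e'⟩
  iterate 4 omega
  refine Or.inr (Or.inr (Or.inr (Or.inr ⟨by omega, ?_⟩)))
  by_contra hc
  obtain ⟨r, hr⟩ := h2 (by omega)
  obtain ⟨r', hr'⟩ := (h.rat2 hu hv (ζ := ζ ^ 2) (ξ := ζ⁻¹ ^ 2) hs.symm h4
    (by rw [inv_pow]; exact k _ (by rw [← pow_mul, mul_comm, pow_mul, hp.pow_eq_one, one_pow]))
    (fun h => by
      rw [← pow_mul] at h
      have := Nat.le_of_dvd (by norm_num) ((hp.pow_eq_one_iff_dvd _).1 h)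
      omega)).2 (by omega)
  rw [e'] at h3
  rw [h3] at hr'
  have h5 : (r : ℂ) ^ 2 = 3 * (r' : ℂ) ^ 2 := by
    rw [← hr, ← hr']; push_cast at h3 ⊢
    linear_combination s ^ 2 * h3 + 2 * s ^ 2 * h1
  have h6 : r ^ 2 = 3 * r' ^ 2 := by exact_mod_cast h5
  have h7 : r' ≠ 0 := fun e => huv (by rw [hs, ← mul_one s, show s * 1 = 0 by simpa [e] using hr', mul_zero])
  have h8 : IsSquare (3 : ℚ) := ⟨r / r', by field_simp; linarith⟩
  exact Nat.prime_three.prime.not_isSquare (Rat.isSquare_natCast_iff.1 h8)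

end FH
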