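import Cfsg.Agent.FH.B
import Cfsg.Agent.H6.BN

/-! FH.C: Feit-Higman for (B,N)-pairs of rank two. -/

open Finset Matrix

namespace FH

/-- alternating products -/
def alt {R : Type*} [Monoid R] : R → R → ℕ → R
  | _, _, 0 => 1
  | a, b, n + 1 => a * alt b a n

theorem alt_even {R : Type*} [Monoid R] (a b : R) (j : ℕ) : alt a b (2 * j) = (a * b) ^ j := by
  induction j with
  | zero => simp [alt]
  | succ j ih => rw [show 2 * (j + 1) = 2 * j + 1 + 1 from rfl, alt, alt, ih, pow_succ', mul_assoc]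

theorem alt_odd {R : Type*} [Monoid R] (a b : R) (j : ℕ) : alt a b (2 * j + 1) = (a * b) ^ j * a := by
  rw [alt, alt_even]
  exact (SemiconjBy.pow_right (show SemiconjBy a (b * a) (a * b) from (mul_assoc _ _ _).symm) j).eq

variable {X : Type*} [Fintype X] [DecidableEq X]

structure Hk (a b : Matrix X X ℂ) (u v m : ℕ) : Prop where
  ne : Nonempty X
  ha : a * a = (u : ℂ) • (1 : Matrix X X ℂ) + ((u : ℂ) - 1) • a
  hb : b * b = (v : ℂ) • (1 : Matrix X X ℂ) + ((v : ℂ) - 1) • b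
  br : alt a b m = alt b a m
  t1 : ∀ n, 0 < n → n ≤ m → (alt a b n).trace = 0
  t2 : ∀ n, 0 < n → n ≤ m → (alt b a n).trace = 0

variable {a b : Matrix X X ℂ} {u v d : ℕ}

theorem Hk.even (h : Hk a b u v (2 * (d + 1))) : Rel a b u v d where
  ne := h.ne
  ha := h.ha
  hb := h.hb
  br := by rw [← alt_even, ← alt_even, h.br]
  t1 := fun j h1 h2 => by rw [← alt_even]; exact h.t1 _ (by omega) (by omega)
  t2 := fun j h2 => by rw [← alt_odd]; exact h.t1 _ (by omega) (by omega)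
  t3 := fun j h2 => by rw [← alt_even]; exact h.t2 (2 * j + 1) (by omega) (by omega)
  t4 := fun j h2 => by rw [mul_assoc, ← alt_odd]; exact h.t2 (2 * j + 1 + 1) (by omega) (by omega)

theorem Hk.dbl (h : Hk a b v v (d + 1)) :
    Rel (fromBlocks 0 1 1 0 : Matrix (X ⊕ X) (X ⊕ X) ℂ) (fromBlocks a 0 0 b) 1 v d := by
  set σ : Matrix (X ⊕ X) (X ⊕ X) ℂ := fromBlocks 0 1 1 0 with hσ
  have s1 : σ * σ = 1 := by simp [hσ, fromBlocks_multiply]
  have s2 : ∀ P Q : Matrix X X ℂ, σ * fromBlocks P 0 0 Q = fromBlocks Q 0 0 P * σ := fun P Q => by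
    simp [hσ, fromBlocks_multiply]
  have s3 : ∀ j, σ ^ j = 1 ∨ σ ^ j = σ := fun j => by
    induction j with
    | zero => simp
    | succ j ih => rcases ih with e | e <;> simp [pow_succ, e, s1]
  have tr : ∀ (P Q : Matrix X X ℂ) (j : ℕ), P.trace = 0 → Q.trace = 0 →
      (fromBlocks P 0 0 Q * σ ^ j).trace = 0 := fun P Q j h1 h2 => by
    rcases s3 j with e | e <;> rw [e]
    · simp only [Matrix.trace, Matrix.diag] at h1 h2 ⊢
      simp [Fintype.sum_sum_type, h1, h2]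
    · simp [hσ, fromBlocks_multiply, Matrix.trace, Fintype.sum_sum_type]
  have p1 : ∀ j, (σ * fromBlocks a 0 0 b) ^ j = fromBlocks (alt b a j) 0 0 (alt a b j) * σ ^ j := fun j => by
    induction j with
    | zero => simp [alt]
    | succ j ih =>
      rw [pow_succ', ih, mul_assoc, ← mul_assoc (fromBlocks a 0 0 b), fromBlocks_multiply, ← mul_assoc]
      simp only [Matrix.mul_zero, Matrix.zero_mul, add_zero, zero_add]
      rw [s2, mul_assoc, ← pow_succ']; rfl
  have p2 : ∀ j, fromBlocks a 0 0 b * (σ * fromBlocks a 0 0 b) ^ j =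
      fromBlocks (alt a b (j + 1)) 0 0 (alt b a (j + 1)) * σ ^ j := fun j => by
    rw [p1, ← mul_assoc, fromBlocks_multiply]
    simp [alt]
  refine ⟨⟨Sum.inl h.ne.some⟩, by simp [s1], ?_, ?_, fun j h1 h2 => ?_, fun j h2 => ?_, fun j h2 => ?_,
    fun j h2 => ?_⟩
  · rw [fromBlocks_multiply, h.ha, h.hb, ← fromBlocks_one, fromBlocks_smul, fromBlocks_smul, fromBlocks_add]
    simp
  · rw [← alt_even _ σ, show 2 * (d + 1) = 2 * d + 1 + 1 from rfl, alt, alt_odd, ← mul_assoc, p2, p1, h.br,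
      mul_assoc, ← pow_succ]
  · rw [p1]; exact tr _ _ _ (h.t2 _ h1 (by omega)) (h.t1 _ h1 (by omega))
  · rw [p1, mul_assoc, ← pow_succ]
    rcases Nat.eq_zero_or_pos j with rfl | h1
    · simp [alt, hσ, Matrix.trace, Fintype.sum_sum_type]
    · exact tr _ _ _ (h.t2 _ h1 (by omega)) (h.t1 _ h1 (by omega))
  · rw [p2]; exact tr _ _ _ (h.t1 _ (by omega) (by omega)) (h.t2 _ (by omega) (by omega))
  · rw [p2, mul_assoc, ← pow_succ]
    exact tr _ _ _ (h.t1 _ (by omega) (by omega)) (h.t2 _ (by omega) (by omega))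

theorem Hk.main {m : ℕ} (h : Hk a b u v m) (hm : 2 ≤ m) (hu : 2 ≤ u) (hv : 2 ≤ v)
    (h1 : a *ᵥ (fun _ => 1) = (u : ℂ) • fun _ => 1) (h2 : b *ᵥ (fun _ => 1) = (v : ℂ) • fun _ => 1) :
    m = 2 ∨ m = 3 ∨ m = 4 ∨ m = 6 ∨ m = 8 := by
  rcases Nat.even_or_odd' m with ⟨j, rfl | rfl⟩
  · obtain ⟨d, rfl⟩ : ∃ d, j = d + 1 := ⟨j - 1, by omega⟩
    have := h.even.main (by omega) hv
    omega
  · have k : ∀ n (a b : Matrix X X ℂ) (u v : ℂ), a *ᵥ (fun _ => 1) = (u : ℂ) • (fun _ => 1) →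
        b *ᵥ (fun _ => 1) = (v : ℂ) • (fun _ => 1) →
        alt a b n *ᵥ (fun _ => 1) = alt u v n • fun _ => 1 := fun n => by
      induction n with
      | zero => intro a b u v _ _; simp [alt]
      | succ n ih =>
        intro a b u v h1 h2
        rw [alt, alt, ← mulVec_mulVec, ih b a v u h2 h1, mulVec_smul, h1, smul_smul, mul_comm]
    have e := k (2 * j + 1) a b u v h1 h2
    rw [h.br, k _ b a v u h2 h1, alt_odd, alt_odd] at e
    have e' := congrFun e h.ne.some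
    simp only [Pi.smul_apply, smul_eq_mul, mul_one, mul_comm (v : ℂ) u] at e'
    have e2 : v = u := by
      exact_mod_cast mul_left_cancel₀ (pow_ne_zero _ (by exact_mod_cast (by positivity : u * v ≠ 0))) e'
    subst e2
    have := h.dbl.main one_pos hv
    omega

section dih
variable {W : Type*} [Group W] {r s : W}

/-- elements of a dihedral group -/
def pp (r s : W) (n : ℤ) : W := (r * s) ^ (n / 2) * r ^ (n % 2)

theorem pp_even (j : ℤ) : pp r s (2 * j) = (r * s) ^ j := by simp [pp]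
theorem pp_odd (j : ℤ) : pp r s (2 * j + 1) = (r * s) ^ j * r := by
  rw [pp, show (2 * j + 1) / 2 = j by omega, show (2 * j + 1) % 2 = 1 by omega, zpow_one]

theorem r_mul (hr : r * r = 1) (hs : s * s = 1) (j : ℤ) : r * (r * s) ^ j = (r * s) ^ (-j) * r := by
  have : SemiconjBy r (r * s) (r * s)⁻¹ := by
    rw [SemiconjBy, _root_.mul_inv_rev, inv_eq_of_mul_eq_one_right hr, inv_eq_of_mul_eq_one_right hs,
      ← mul_assoc, hr, mul_assoc, hr, one_mul, mul_one]
  rw [(this.zpow_right j).eq, _root_.inv_zpow']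

theorem r_pp (hr : r * r = 1) (hs : s * s = 1) (n : ℤ) : r * pp r s n = pp r s (1 - n) := by
  rcases Int.even_or_odd' n with ⟨j, rfl | rfl⟩
  · rw [show 1 - 2 * j = 2 * (-j) + 1 by ring, pp_even, pp_odd, r_mul hr hs]
  · rw [show 1 - (2 * j + 1) = 2 * (-j) by ring, pp_even, pp_odd, ← mul_assoc, r_mul hr hs, mul_assoc, hr,
      mul_one]

theorem s_pp (hr : r * r = 1) (hs : s * s = 1) (n : ℤ) : s * pp r s n = pp r s (-1 - n) := by
  have e : s = (r * s) ^ (-1 : ℤ) * r := by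
    rw [_root_.zpow_neg_one, _root_.mul_inv_rev, inv_eq_of_mul_eq_one_right hr, inv_eq_of_mul_eq_one_right hs,
      mul_assoc, hr, mul_one]
  nth_rewrite 1 [e]
  rw [mul_assoc, r_pp hr hs, pp, pp, ← mul_assoc, ← _root_.zpow_add]
  congr 2 <;> omega

theorem r_notMem (hr : r * r = 1) (hs : s * s = 1) (h1 : r ≠ 1) (h2 : s ≠ 1) (k : ℤ) : (r * s) ^ k ≠ r := by
  intro e
  have e1 : (r * s) ^ (2 : ℤ) = 1 := by
    have a1 := r_mul hr hs 1
    have a2 : r * (r * s) ^ (1 : ℤ) = (r * s) ^ (1 : ℤ) * r := by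
      nth_rewrite 1 [← e]; nth_rewrite 4 [← e]
      rw [← _root_.zpow_add, ← _root_.zpow_add, add_comm]
    have a3 := mul_right_cancel (a2.symm.trans a1)
    rw [show (2 : ℤ) = 1 + 1 from rfl, _root_.zpow_add]
    nth_rewrite 1 [a3]
    rw [← _root_.zpow_add]; simp
  rcases Int.even_or_odd' k with ⟨j, rfl | rfl⟩
  · rw [_root_.zpow_mul, e1, _root_.one_zpow] at e; exact h1 e.symm
  · rw [_root_.zpow_add, _root_.zpow_mul, e1, _root_.one_zpow, one_mul, zpow_one] at e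
    exact h2 (by simpa using e)

theorem pp_inj (hr : r * r = 1) (hs : s * s = 1) (h1 : r ≠ 1) (h2 : s ≠ 1) {n n' : ℤ}
    (h : pp r s n = pp r s n') : (2 * orderOf (r * s) : ℤ) ∣ n - n' := by
  have k : ∀ j j' : ℤ, (r * s) ^ j = (r * s) ^ j' → (orderOf (r * s) : ℤ) ∣ j - j' := fun j j' e =>
    orderOf_dvd_iff_zpow_eq_one.2 (by rw [_root_.zpow_sub, e, mul_inv_cancel])
  have k2 : ∀ j j' : ℤ, (r * s) ^ j ≠ (r * s) ^ j' * r := fun j j' e =>
    r_notMem hr hs h1 h2 (-j' + j) (by rw [_root_.zpow_add, e, _root_.zpow_neg, inv_mul_cancel_left])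
  rcases Int.even_or_odd' n with ⟨j, rfl | rfl⟩ <;> rcases Int.even_or_odd' n' with ⟨j', rfl | rfl⟩ <;>
    simp only [pp_even, pp_odd] at h
  · rw [← mul_sub]; exact mul_dvd_mul_left 2 (k _ _ h)
  · exact absurd h (k2 _ _)
  · exact absurd h.symm (k2 _ _)
  · rw [add_sub_add_right_eq_sub, ← mul_sub]; exact mul_dvd_mul_left 2 (k _ _ (mul_right_cancel h))

theorem alt_pp (hr : r * r = 1) (hs : s * s = 1) (n : ℕ) : alt r s n = pp r s n ∧ alt s r n = pp r s (-n) := by
  induction n with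
  | zero => simp [alt, pp]
  | succ n ih =>
    rw [alt, alt, ih.1, ih.2, r_pp hr hs, s_pp hr hs]
    constructor <;> congr 1 <;> push_cast <;> ring

end dih

end FH
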