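import Cfsg.Agent.FH.C

/-! FH.D: Feit-Higman for (B,N)-pairs of rank two, the Hecke operators. -/

open Finset Matrix H6 Cfsg

namespace FH

section gen
variable {B W : Type*} [Group W] {I : InvGen B W} {i j : B}

theorem wp_pp (h : ∀ k, k = i ∨ k = j) (l : List B) :
    ∃ n : ℤ, n.natAbs ≤ l.length ∧ I.wp l = pp (I.s i) (I.s j) n := by
  induction l with
  | nil => exact ⟨0, le_rfl, by simp [pp]⟩
  | cons k l ih =>
    obtain ⟨n, h1, h2⟩ := ih
    rcases h k with rfl | rfl
    · exact ⟨1 - n, by simp; omega, by rw [I.wp_cons, h2, r_pp (I.sq _) (I.sq _)]⟩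
    · exact ⟨-1 - n, by simp; omega, by rw [I.wp_cons, h2, s_pp (I.sq _) (I.sq _)]⟩

theorem le_len (h : ∀ k, k = i ∨ k = j) (h1 : I.s i ≠ 1) (h2 : I.s j ≠ 1) {n : ℤ}
    (hn : n.natAbs ≤ orderOf (I.s i * I.s j)) : n.natAbs ≤ I.len (pp (I.s i) (I.s j) n) := by
  obtain ⟨l, l1, l2⟩ := I.exists_word (pp (I.s i) (I.s j) n)
  obtain ⟨n', a1, a2⟩ := wp_pp (I := I) h l
  have hd := pp_inj (I.sq _) (I.sq _) h1 h2 (l2.symm.trans a2)
  rw [← l1]
  by_cases e : n - n' = 0
  · omega
  · have := Int.le_of_dvd (abs_pos.2 e) ((dvd_abs _ _).2 hd)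
    rw [Int.abs_eq_natAbs] at this
    omega

theorem len_alt_le (n : ℕ) : ∀ i j : B, I.len (alt (I.s i) (I.s j) n) ≤ n := by
  induction n with
  | zero => intro i j; simp [alt]
  | succ n ih => intro i j; exact (I.len_s_mul_le _ _).trans (Nat.succ_le_succ (ih j i))

theorem le_len_alt (h : ∀ k, k = i ∨ k = j) (h1 : I.s i ≠ 1) (h2 : I.s j ≠ 1) {n : ℕ}
    (hn : n ≤ orderOf (I.s i * I.s j)) : n ≤ I.len (alt (I.s i) (I.s j) n) := by
  rw [(alt_pp (I.sq _) (I.sq _) n).1]
  simpa using le_len h h1 h2 (n := n) (by simpa using hn)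

theorem card_eq (h : ∀ k, k = i ∨ k = j) (h1 : I.s i ≠ 1) (h2 : I.s j ≠ 1) :
    Nat.card W = 2 * orderOf (I.s i * I.s j) := by
  rw [← Nat.card_zpowers, ← (Subgroup.zpowers (I.s i * I.s j)).index_mul_card]
  congr 1
  refine Subgroup.index_eq_two_iff.2 ⟨I.s i, fun w => ?_⟩
  obtain ⟨l, -, rfl⟩ := I.exists_word w
  obtain ⟨n, -, e⟩ := wp_pp (I := I) h l
  have k : ∀ k : ℤ, (I.s i * I.s j) ^ k * I.s i ∉ Subgroup.zpowers (I.s i * I.s j) := fun k hk => by
    rw [Subgroup.mul_mem_cancel_left _ (Subgroup.zpow_mem_zpowers _ k)] at hk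
    obtain ⟨k, hk⟩ := hk
    exact r_notMem (I.sq _) (I.sq _) h1 h2 k hk
  rw [e]
  rcases Int.even_or_odd' n with ⟨k', rfl | rfl⟩
  · rw [pp_even]; exact Or.inr ⟨Subgroup.zpow_mem_zpowers _ _, k _⟩
  · rw [pp_odd, I.mul_s_mul_s]; exact Or.inl ⟨Subgroup.zpow_mem_zpowers _ _, k _⟩

end gen

open H6.BN
open scoped Classical

variable {G : Type*} [Group G] [Finite G] (P : BNPair G)

noncomputable instance : Fintype (G ⧸ P.B) := Fintype.ofFinite _

/-- Hecke operators -/
noncomputable def T (w : W P) : Matrix (G ⧸ P.B) (G ⧸ P.B) ℂ :=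
  fun x y => if x.out⁻¹ * y.out ∈ C P w then 1 else 0

variable {P}

omit [Finite G] in
theorem out_mem {w : W P} (g : G) (x : G) : x * (g : G ⧸ P.B).out ∈ C P w ↔ x * g ∈ C P w := by
  obtain ⟨b, hb⟩ := QuotientGroup.mk_out_eq_mul P.B g
  rw [hb, ← mul_assoc]
  exact ⟨fun h => by simpa using mul_mem_C_right (inv_mem b.2) h, mul_mem_C_right b.2⟩

omit [Finite G] in
theorem out_mem' {w : W P} (g : G) (x : G) : (g : G ⧸ P.B).out⁻¹ * x ∈ C P w ↔ g⁻¹ * x ∈ C P w := by
  obtain ⟨b, hb⟩ := QuotientGroup.mk_out_eq_mul P.B g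
  rw [hb, _root_.mul_inv_rev, mul_assoc]
  exact ⟨fun h => by simpa using mul_mem_C_left b.2 h, mul_mem_C_left (inv_mem b.2)⟩

omit [Finite G] in
theorem mem_one_iff (x y : G ⧸ P.B) : x.out⁻¹ * y.out ∈ C P 1 ↔ x = y := by
  rw [mem_C_one, ← QuotientGroup.eq, QuotientGroup.out_eq', QuotientGroup.out_eq']

theorem T_one : T P 1 = 1 := by
  ext x y
  simp [T, mem_one_iff, Matrix.one_apply]

theorem trace_T {w : W P} (h : w ≠ 1) : (T P w).trace = 0 :=
  sum_eq_zero fun x _ => if_neg fun h' => h (eq_of_mem_C h' ((mem_one_iff x x).2 rfl))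

theorem T_mul {i : P.S} {w : W P} (h : (gen P).len w ≤ (gen P).len (s P i * w)) :
    T P (s P i) * T P w = T P (s P i * w) := by
  ext x z
  rw [Matrix.mul_apply]
  by_cases e : x.out⁻¹ * z.out ∈ C P (s P i * w)
  · obtain ⟨n, -, hn⟩ := C_nonempty w
    obtain ⟨b, hb, b', hb', e'⟩ := exists_of_mem_C (mul_mem_C_of_le h (gen_mem_C i) hn) e
    have a1 : x.out⁻¹ * ((x.out * b * i : G) : G ⧸ P.B).out ∈ C P (s P i) := by
      rw [out_mem]; simpa [mul_assoc] using mul_mem_C_left hb (gen_mem_C i)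
    have a2 : ((x.out * b * i : G) : G ⧸ P.B).out⁻¹ * z.out ∈ C P w := by
      rw [out_mem', show (x.out * b * i)⁻¹ * z.out = (b * i)⁻¹ * (x.out⁻¹ * z.out) by group, e']
      simpa [mul_assoc] using mul_mem_C_right hb' hn
    rw [sum_eq_single ((x.out * b * i : G) : G ⧸ P.B)]
    · simp [T, a1, a2, e]
    · intro y _ hy
      simp only [T, mul_ite, mul_one, mul_zero, ite_eq_right_iff]
      intro b2 b1
      exfalso
      have b3 := inv_mem_C b1
      rw [s_inv] at b3
      rcases s_mul_mem_C b3 a1 with c | c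
      · rw [s_sq] at c
        exact hy ((mem_one_iff _ _).1 (by simpa [mul_assoc] using c))
      · have := eq_of_mem_C (mul_mem_C_of_le h c a2) (by simpa [mul_assoc] using b2)
        exact s_ne_one P i (by simpa using this)
    · simp
  · rw [T, if_neg e]
    refine sum_eq_zero fun y _ => ?_
    simp only [T, mul_ite, mul_one, mul_zero, ite_eq_right_iff]
    intro b2 b1
    exact absurd (by simpa [mul_assoc] using mul_mem_C_of_le h b1 b2) e

theorem T_sq (i : P.S) : ∃ u : ℕ, 2 ≤ u ∧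
    T P (s P i) * T P (s P i) = (u : ℂ) • (1 : Matrix _ _ ℂ) + ((u : ℂ) - 1) • T P (s P i) ∧
    T P (s P i) *ᵥ (fun _ => 1) = (u : ℂ) • fun _ => 1 := by
  set F : G → Finset (G ⧸ P.B) := fun g => univ.filter fun y => g⁻¹ * y.out ∈ C P (s P i) with hF
  have f1 : ∀ g, (F g).card = (F 1).card := fun g => by
    refine card_bij (fun y _ => g⁻¹ • y) (fun y hy => ?_) (fun y _ y' _ e => by simpa using e)
      (fun y hy => ⟨g • y, ?_, by simp⟩)
    · simp only [hF, mem_filter, mem_univ, true_and] at hy ⊢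
      rw [← QuotientGroup.out_eq' y, MulAction.Quotient.smul_mk, out_mem]
      simpa using hy
    · simp only [hF, mem_filter, mem_univ, true_and] at hy ⊢
      rw [← QuotientGroup.out_eq' y, MulAction.Quotient.smul_mk, out_mem]
      simpa using hy
  have sne := s_ne_one P i
  refine ⟨(F 1).card, ?_, ?_, ?_⟩
  · obtain ⟨b, hb, e⟩ := exists_conj_mem_C i
    refine one_lt_card.2 ⟨((i : G) : G ⧸ P.B), ?_, (((i : G) * b * i : G) : G ⧸ P.B), ?_, fun e' => ?_⟩
    · simp only [hF, mem_filter, mem_univ, true_and]; rw [out_mem]; simpa using gen_mem_C i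
    · simp only [hF, mem_filter, mem_univ, true_and]; rw [out_mem]; simpa using e
    · rw [QuotientGroup.eq] at e'
      exact not_mem_B P i.2 (by simpa [mul_assoc] using P.B.mul_mem (P.B.inv_mem hb) e')
  · ext x z
    have k : (T P (s P i) * T P (s P i)) x z =
        ((F x.out).filter fun y => y.out⁻¹ * z.out ∈ C P (s P i)).card := by
      rw [Matrix.mul_apply, hF, filter_filter, card_filter]
      push_cast
      exact sum_congr rfl fun y _ => by simp only [T]; split_ifs <;> simp_all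
    rw [k, ← f1 x.out]
    by_cases e : x = z
    · subst e
      rw [filter_true_of_mem fun y hy => by
        have := inv_mem_C (mem_filter.1 hy).2
        rw [s_inv] at this; simpa using this]
      have : x.out⁻¹ * x.out ∉ C P (s P i) := fun h' => sne (eq_of_mem_C h' ((mem_one_iff x x).2 rfl))
      simp only [Matrix.add_apply, Matrix.smul_apply, T, if_neg this]
      simp
    by_cases e2 : x.out⁻¹ * z.out ∈ C P (s P i)
    · have : ((F x.out).filter fun y => y.out⁻¹ * z.out ∈ C P (s P i)) = (F x.out).erase z := by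
        ext y
        simp only [mem_filter, mem_erase, and_comm (a := y ≠ z)]
        refine and_congr_right fun hy => ⟨fun h1 h2 => ?_, fun h1 => ?_⟩
        · subst h2; exact sne (eq_of_mem_C h1 ((mem_one_iff y y).2 rfl))
        · have b3 := inv_mem_C (mem_filter.1 hy).2
          rw [s_inv] at b3
          rcases s_mul_mem_C b3 e2 with c | c
          · rw [s_sq] at c
            exact absurd ((mem_one_iff _ _).1 (by simpa [mul_assoc] using c)) h1
          · simpa [mul_assoc] using c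
      have hz : z ∈ F x.out := mem_filter.2 ⟨mem_univ _, e2⟩
      rw [this, card_erase_of_mem hz, Nat.cast_pred (card_pos.2 ⟨z, hz⟩)]
      simp [T, e, e2]
    · rw [filter_false_of_mem fun y hy h' => by
        rcases s_mul_mem_C (mem_filter.1 hy).2 h' with c | c
        · rw [s_sq] at c
          exact e ((mem_one_iff _ _).1 (by simpa [mul_assoc] using c))
        · exact e2 (by simpa [mul_assoc] using c)]
      simp [T, e, e2]
  · ext x
    rw [← f1 x.out]
    simp [mulVec, dotProduct, T, hF]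

theorem alt_T {i j : P.S} (h : ∀ k, k = i ∨ k = j) (n : ℕ) (hn : n ≤ orderOf (s P i * s P j)) :
    alt (T P (s P i)) (T P (s P j)) n = T P (alt (s P i) (s P j) n) := by
  induction n generalizing i j with
  | zero => simp [alt, T_one]
  | succ n ih =>
    rw [alt, alt, ih (fun k => (h k).symm) (by
      rw [← orderOf_inv, _root_.mul_inv_rev, s_inv, s_inv]; omega), T_mul]
    exact (len_alt_le (I := gen P) n j i).trans ((Nat.le_succ n).trans
      (le_len_alt (I := gen P) h (s_ne_one P i) (s_ne_one P j) hn))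

theorem feit_higman (h2 : P.rank = 2) : Nat.card (W P) ∈ ({4, 6, 8, 12, 16} : Set ℕ) := by
  obtain ⟨i, j, hij, hu⟩ := Nat.card_eq_two_iff.1 h2
  have h : ∀ k, k = i ∨ k = j := fun k => by simpa using (hu ▸ Set.mem_univ k : k ∈ ({i, j} : Set P.S))
  have hi := s_ne_one P i
  have hj := s_ne_one P j
  rw [card_eq (I := gen P) h hi hj]
  simp only [gen_s]
  have e : orderOf (s P j * s P i) = orderOf (s P i * s P j) := by
    rw [← orderOf_inv, _root_.mul_inv_rev, s_inv, s_inv]
  obtain ⟨u, u1, u2, u3⟩ := T_sq i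
  obtain ⟨v, v1, v2, v3⟩ := T_sq j
  have tr : ∀ {i j : P.S}, (∀ k, k = i ∨ k = j) → ∀ n, 0 < n → n ≤ orderOf (s P i * s P j) →
      (alt (T P (s P i)) (T P (s P j)) n).trace = 0 := fun {i j} h n h0 hn => by
    rw [alt_T h n hn]
    refine trace_T fun e => ?_
    have := le_len_alt (I := gen P) h (s_ne_one P i) (s_ne_one P j) hn
    simp only [gen_s] at this
    rw [e, InvGen.len_one] at this
    omega
  have hk : Hk (T P (s P i)) (T P (s P j)) u v (orderOf (s P i * s P j)) :=
    ⟨inferInstance, u2, v2, by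
      rw [alt_T h _ le_rfl, alt_T (fun k => (h k).symm) _ e.ge, (alt_pp (s_sq P i) (s_sq P j) _).1,
        (alt_pp (s_sq P i) (s_sq P j) _).2, pp, pp]
      congr 2
      swap
      · congr 1; omega
      rw [← mul_inv_eq_one, ← _root_.zpow_sub, ← orderOf_dvd_iff_zpow_eq_one]
      exact ⟨1, by omega⟩, tr h, fun n h0 hn => tr (fun k => (h k).symm) n h0 (e ▸ hn)⟩
  have m2 : 2 ≤ orderOf (s P i * s P j) := by
    have a1 := orderOf_pos (s P i * s P j)
    have a2 : orderOf (s P i * s P j) ≠ 1 := fun e => hij (s_injective P (by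
      rw [orderOf_eq_one_iff, mul_eq_one_iff_eq_inv, s_inv] at e; exact e))
    omega
  rcases hk.main m2 u1 v1 u3 v3 with e | e | e | e | e <;> simp [e]

end FH
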